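import Cfsg.Agent.Class.Asch.OrthSub

/-!
The subgroup structure theorem for the orthogonal groups.
-/

set_option autoImplicit false
set_option linter.unusedSectionVars false

namespace Cfsg.Lib.Class.Asch

open Matrix Cfsg.Geo
open scoped MatrixGroups commutatorElement

variable {ι : Type} [Fintype ι] [DecidableEq ι] {F : Type*} [Field F] [Fintype F]
  {H : Subgroup (GL ι F)} {Q : (ι → F) → F}

theorem Irr.of_exists_quad (hI : Irr H) (hn : 2 ≤ Fintype.card ι)
    (hQ : IsNondegenerateQuadraticForm Q) (hH : H ≤ isometryGroup F Q) {p : ((ι → F) → F) → Prop}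
    (h : ∃ Q' : (ι → F) → F, IsNondegenerateQuadraticForm Q' ∧
      (∀ u v, QuadraticMap.polar Q' u v = QuadraticMap.polar Q u v) ∧ H ≤ isometryGroup F Q' ∧
      p Q') : p Q := by
  obtain ⟨Q', h1, h2, h3, h4⟩ := h
  rwa [funext (hI.quad_unique hn h1 hQ h2 h3 hH)] at h4

theorem oCase_of_subfield (hQ : IsNondegenerateQuadraticForm Q) (hn : 2 ≤ Fintype.card ι)
    (hI : Irr H) (hH : H ≤ isometryGroup F Q)
    (h : ∃ (F₀ : Subfield F) (r : ℕ) (P : GL ι F) (ζ : F), r.Prime ∧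
      Fintype.card F = Nat.card F₀ ^ r ∧ ζ ≠ 0 ∧
      IsFormRationalStructure (QuadraticMap.polar Q) F₀ ζ P ∧ H ≤ subfieldSubgroup F₀ P) :
    OCase Q H := by
  obtain ⟨F₀, r, P, ζ, h1, h2, h3, h4, h5⟩ := h
  exact .inr (.inr (.inr (.inr (.inr (.inr (.inr (.inr (.inr (.inl ⟨F₀, r, P, ζ, h1, h2, h3,
    isQuadFormRationalStructure_of_polar hQ hn hI hH h3 h4 h5, h5⟩)))))))))

theorem two_ne_zero_of_odd_dim (hQ : IsNondegenerateQuadraticForm Q) (hn : Odd (Fintype.card ι)) :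
    (2 : F) ≠ 0 := fun h2 =>
  Nat.not_even_iff_odd.2 hn (even_card_of_isSymplecticForm (isSymplecticForm_polar hQ h2))

theorem oCase_of_hasComm (hQ : IsNondegenerateQuadraticForm Q) (hn : 3 ≤ Fintype.card ι)
    (hI : Irr H) (hH : H ≤ isometryGroup F Q)
    (h : HasComm (RingEquiv.refl F) (QuadraticMap.polar Q) H) : OCase Q H := by
  have hn2 : 2 ≤ Fintype.card ι := by omega
  have : Nonempty ι := Fintype.card_pos_iff.1 (by omega)
  have hf := isSesq_polar hQ
  have hH' := hH.trans (isometryGroup_le_isoms Q)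
  have hs := hH'.trans (isoms_le_similarityGroup _)
  rcases h.cases hf hI hs with ⟨t, E, hE, h1⟩ | ⟨E, hE, h1⟩ | ⟨r, K, hr, hK, hN, hA⟩
  · let i₀ : Fin t := ⟨0, by have := hE.two_le; omega⟩
    by_cases h2 : (E i₀).rank = 1 → (Fintype.card F).Prime
    · exact .inr (.inr (.inr (.inl ⟨t, _, _, h2, ⟨hE.isNondegenerateMDecomposition hf h1 i₀,
        hE.areIsometricFor hH⟩, hE.le_decompositionStabilizer⟩)))
    · obtain ⟨h2, h3⟩ := Classical.not_imp.1 h2
      obtain ⟨F₀, h0⟩ := exists_subfield_ne_top h3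
      obtain ⟨F₁, r, -, h4, h5⟩ := exists_subfield_prime_index h0
      obtain ⟨P, ζ, h6⟩ := hE.exists_subfield_of_rank_one hf h1 hH' h2 F₁
      exact oCase_of_subfield hQ hn2 hI hH ⟨F₁, r, P, ζ, h4, h5, h6⟩
  · refine .inr (.inr (.inr (.inr (.inl ⟨_, _, hE.isMDecomposition 0, ?_,
      hE.le_decompositionStabilizer⟩))))
    by_cases h2 : (2 : F) = 0
    · exact hI.of_exists_quad hn2 hQ hH (hE.exists_quad hf h1 h2 hI hH')
    · exact fun i w hw => quad_eq_zero_of_polar hQ h2 (hE.isTotallySingularFor hf h1 i w hw w hw)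
  by_cases hS : ∀ x ∈ K, adj (RingEquiv.refl F) (QuadraticMap.polar Q) x = x
  · refine .inr (.inr (.inr (.inr (.inr (.inl ⟨r, K, hr, ?_, hK, hf.isSelfAdjointFor_iff.2 hS,
      fun h2 => IsFieldSubalgebra.alt_of_selfAdjoint hK hf
        (polar_alt_of_two hQ (two_eq_zero_of_not_odd h2)) hS hI hs hN,
      hN.le_subalgebraNormalizer⟩)))))
    rintro rfl
    have ho := hr.odd_of_ne_two (by omega)
    exact hf.not_irr_of_comm (two_ne_zero_of_odd_dim hQ ho) ho hn2 hH'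
      (IsFieldSubalgebra.comm_of_selfAdjoint hK hf hS ho hH' hN) hI
  obtain rfl := IsFieldSubalgebra.eq_two_of_not_selfAdjoint hK hr hf hA hS
  refine .inr (.inr (.inr (.inr (.inr (.inr (.inl ⟨K, hK, hf.isAdjointClosedFor hA,
    fun h => hS (hf.isSelfAdjointFor_iff.1 h), fun k hk => ?_, hN.le_subalgebraNormalizer⟩))))))
  obtain ⟨c, hc⟩ := IsFieldSubalgebra.exists_norm hK hf hA hS hk
  refine ⟨c, fun v => ?_⟩
  by_cases h2 : (2 : F) = 0
  · obtain ⟨k₀, hk₀, h3⟩ := hI.of_exists_quad hn2 hQ hH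
      (p := fun Q' => ∃ k ∈ K, ∀ v, Q' v = QuadraticMap.polar Q (k *ᵥ v) v)
      (IsFieldSubalgebra.exists_quad hK hf (polar_alt_of_two hQ h2) hA hS h2 hI hH' hN)
    rw [h3, h3 v, mulVec_mulVec, hK.comm _ hk₀ _ hk, ← mulVec_mulVec, hc]
  · refine mul_left_cancel₀ h2 ?_
    rw [← polar_self_eq hQ, hc, polar_self_eq hQ, mul_left_comm]

theorem oCase_of_tw (hQ : IsNondegenerateQuadraticForm Q) (hn : 3 ≤ Fintype.card ι)
    (hI : Irr H) (hH : H ≤ isometryGroup F Q) (h2 : (2 : F) ≠ 0) {t m : ℕ}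
    {e : ι ≃ (Fin t → Fin m)} {P : GL ι F} {ε₁ : F} {f₁ : (Fin m → F) → (Fin m → F) → F}
    (h : TW (RingEquiv.refl F) (QuadraticMap.polar Q) H e P ε₁ f₁)
    (hex : ε₁ = 1 → ¬ (Fintype.card F = 3 ∧ m = 3)) : OCase Q H := by
  have hf := isSesq_polar hQ
  rcases h.hf₁.eps_cases with rfl | rfl
  · rcases h.two_le.eq_or_lt with rfl | hm
    · exact oCase_of_hasComm hQ hn hI hH (h.hasComm_of_two hf h2
        (hH.trans ((isometryGroup_le_isoms Q).trans (isoms_le_similarityGroup _))))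
    · exact .inr (.inr (.inr (.inr (.inr (.inr (.inr (.inr (.inr (.inr (.inr (.inl ⟨m, t, e, P, f₁,
        odd_card_of_two_ne_zero h2, hm, h.two_le', hex rfl, h.hf₁.isSymmetricForm, h.str hf,
        h.le⟩)))))))))))
  have h3 := h.hf₁.alt_of_neg_one h2
  obtain ⟨c, -, hc⟩ := IsTensorPowerFormStructure.ptw h.hf₁.pre (h.str hf)
  refine .inr (.inr (.inr (.inr (.inr (.inr (.inr (.inr (.inr (.inr (.inr (.inr (.inl
    ⟨m, t, e, P, f₁, h.two_le', fun _ => ?_, h.hf₁.isSymplecticForm h3, h.str hf,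
      fun x => quad_eq_zero_of_polar hQ h2 ((hc x x).trans ?_), h.le⟩))))))))))))
  · refine Nat.not_odd_iff_even.1 fun ht => one_ne_neg_one_of_two h2 ?_
    rw [← ht.neg_one_pow (α := F)]
    exact h.eps_eq hf
  · rw [Finset.prod_eq_zero (Finset.mem_univ (⟨0, by have := h.two_le'; omega⟩ : Fin t)) (h3 _),
      mul_zero]

theorem oCase_of_tf (hQ : IsNondegenerateQuadraticForm Q) (hn : 3 ≤ Fintype.card ι)
    (hI : Irr H) (hH : H ≤ isometryGroup F Q) {d k : ℕ} (hdk : d ≤ k) {e : ι ≃ Fin d × Fin k}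
    {P : GL ι F} {ε₁ ε₂ : F} {f₁ : (Fin d → F) → (Fin d → F) → F}
    {f₂ : (Fin k → F) → (Fin k → F) → F}
    (h : TF (RingEquiv.refl F) (QuadraticMap.polar Q) H e P ε₁ f₁ ε₂ f₂) : OCase Q H := by
  have hf := isSesq_polar hQ
  have hH' := hH.trans (isometryGroup_le_isoms Q)
  have hs := hH'.trans (isoms_le_similarityGroup _)
  have halt : (∀ v, f₁ v v = 0) → (∀ v, f₂ v v = 0) → (∀ x y, Q (vec e P (ptv x y)) = 0) →
      OCase Q H := fun h1 h2 h3 =>
    .inr (.inr (.inr (.inr (.inr (.inr (.inr (.inr (.inl ⟨d, k, e, P, f₁, f₂, h.two_le₁, hdk,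
      h.hf₁.isSymplecticForm h1, h.hf₂.isSymplecticForm h2, h.str hf, h3, h.le⟩))))))))
  by_cases h2 : (2 : F) = 0
  · exact halt (h.alt_of_two hf h2 hI hs) (h.swap.alt_of_two hf h2 hI hs)
      (hI.of_exists_quad (by omega) hQ hH (h.exists_quad hf h2 hI hH'))
  have h3 := h.eps_eq hf
  rcases h.hf₁.eps_cases with rfl | rfl <;> rcases h.hf₂.eps_cases with rfl | rfl
  · rcases h.two_le₁.eq_or_lt with rfl | hd
    · exact oCase_of_hasComm hQ hn hI hH (h.hasComm_of_two hf h2 hs)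
    by_cases h4 : Odd d → d < k
    · exact .inr (.inr (.inr (.inr (.inr (.inr (.inr (.inl ⟨d, k, e, P, f₁, f₂,
        odd_card_of_two_ne_zero h2, hd, hdk, h4, h.hf₁.isSymmetricForm, h.hf₂.isSymmetricForm,
        h.str hf, h.le⟩)))))))
    obtain ⟨h4, h5⟩ := Classical.not_imp.1 h4
    obtain rfl : d = k := by omega
    by_cases hex : Fintype.card F = 3 ∧ d = 3
    · obtain ⟨hF, rfl⟩ := hex
      rcases h.hasComm_or_minNrm hf hH' (h.hf₁.isSolvable_isoms_orth hF)
        (h.hf₁.not_le_scalars_orth hF) with h6 | ⟨L, -, hL, -, h6, h7, -⟩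
      · exact oCase_of_hasComm hQ hn hI hH h6
      · exact absurd (fun x hx y hy => hf.comm_of_odd (by rw [h.card_eq]; decide) (hL hx) (hL hy)
          (h6 (Subgroup.commutator_mem_commutator hx hy))) h7
    · obtain ⟨b, c, hb⟩ := h.hf₁.exists_similarity_odd h.hf₂ h2 (by rwa [Fintype.card_fin])
      obtain ⟨e', P', h'⟩ := h.exists_tw hb
      exact oCase_of_tw hQ hn hI hH h2 h' fun _ => hex
  · exact absurd (by linear_combination h3) (one_ne_neg_one_of_two h2)
  · exact absurd (by linear_combination h3) (one_ne_neg_one_of_two h2)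
  · obtain ⟨c, hc⟩ := h.exists_ptv hf
    exact halt (h.hf₁.alt_of_neg_one h2) (h.hf₂.alt_of_neg_one h2) fun x y =>
      quad_eq_zero_of_polar hQ h2 (by rw [hc, h.hf₁.alt_of_neg_one h2, zero_mul, mul_zero])

theorem oCase_of_cl2 (hQ : IsNondegenerateQuadraticForm Q) (hn : 3 ≤ Fintype.card ι)
    (hI : Irr H) (hH : H ≤ isometryGroup F Q) {R : Subgroup (GL ι F)} (hR : Cl2 2 R)
    (hRQ : R ≤ isometryGroup F Q) (hN : NrmG H R) : OCase Q H := by
  have hf := isSesq_polar hQ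
  have hRf := hRQ.trans (isometryGroup_le_isoms Q)
  have := hR.nonempty
  rcases hR.hasComm_or hf (hRf.trans (isoms_le_similarityGroup _)) hN with h | hS
  · exact oCase_of_hasComm hQ hn hI hH h
  by_cases hp : (Fintype.card F).Prime
  · exact .inr (.inr (.inr (.inr (.inr (.inr (.inr (.inr (.inr (.inr (.inl ⟨R, hR, hS, hRQ, hp,
      odd_card_of_two_ne_zero hR.two_ne_zero, hR.card_center_of_isoms hf hRf,
      hN.le_normalizer⟩))))))))))
  · obtain ⟨F₀, h0⟩ := exists_subfield_ne_top hp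
    exact oCase_of_subfield hQ hR.two_le hI hH
      (hf.exists_subfield_of_trace h0 hR.env_top hN hRf (hR.trace_mem_of_isoms hf hRf F₀))

theorem oCase_of_core (hQ : IsNondegenerateQuadraticForm Q) (hn : 2 ≤ Fintype.card ι)
    (hH : H ≤ isometryGroup F Q) {P : Subgroup (GL ι F)} (hP : Core H P) : OCase Q H := by
  have hf := isSesq_polar hQ
  have : Nonempty ι := Fintype.card_pos_iff.1 (by omega)
  have hPf := hP.le.trans (hH.trans (isometryGroup_le_isoms Q))
  by_cases h1 : ∃ F₀ : Subfield F, F₀ ≠ ⊤ ∧ RealisableOver F₀ (matrixSet P)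
  · obtain ⟨F₀, h0, h1⟩ := h1
    exact oCase_of_subfield hQ hn ((irr_of_env_eq_top hP.env_top).mono hP.le) hH
      (hf.exists_subfield_of_trace h0 hP.env_top hP.nrm hPf (trace_mem_of_realisableOver h1))
  refine .inr (.inr (.inr (.inr (.inr (.inr (.inr (.inr (.inr (.inr (.inr (.inr (.inr
    ⟨P, hP.isResidualCore fun F₀ h0 h => h1 ⟨F₀, h0, h⟩, ?_⟩))))))))))))
  rintro ⟨σ, f', hf₁, h3⟩
  exact h1 ⟨_, fixedSubfield_ne_top hf₁.ne_refl, realisableOver_of_two_forms
    (isSesq_of_isUnitaryForm hf₁) hf hP.env_top (fixesForm_iff.1 h3) hPf⟩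

/-- The subgroup structure theorem for orthogonal groups. -/
theorem oCase (hQ : IsNondegenerateQuadraticForm Q) (hn : 3 ≤ Fintype.card ι)
    (hH : H ≤ isometryGroup F Q) : OCase Q H := by
  have hn2 : 2 ≤ Fintype.card ι := by omega
  have hf := isSesq_polar hQ
  have hH' := hH.trans (isometryGroup_le_isoms Q)
  have hs := hH'.trans (isoms_le_similarityGroup _)
  have : Nonempty ι := Fintype.card_pos_iff.1 (by omega)
  by_cases hI : Irr H
  swap
  · rcases reducible_cases_quad hQ hH hI with h | h | h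
    · exact .inl h
    · exact .inr (.inl h)
    · exact .inr (.inr (.inl h))
  rcases hI.raw hn2 with ⟨L, hL, hN, h1⟩ | ⟨L, hL, hN, h1, h2, h3⟩ | ⟨L, hL, hM, h1, h2⟩ |
    ⟨t, M, hM⟩ | ⟨P, hP⟩
  · exact oCase_of_hasComm hQ hn hI hH (hasComm_of_ctr hf (hL.trans hs) hN h1)
  · obtain ⟨d, k, e, P, ε₁, f₁, ε₂, f₂, hdk, h⟩ := hI.exists_tf hf hN.nrm_env
      (fun x hx => hf.adj_mem_env (hL.trans hs) hx) h1 h2 h3
    exact oCase_of_tf hQ hn hI hH hdk h
  · exact oCase_of_cl2 hQ hn hI hH (cl2_two_of_isoms hf hn2 h1 h2 (hL.trans hH')) (hL.trans hH)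
      hM.nrm
  · obtain ⟨m, e, P, ε₁, f₁, h, h1, h2⟩ := hM.exists_tw hf hH'
    by_cases h3 : (2 : F) = 0
    · have h4 := h.hf₁.alt_of_irr h3 (by rw [Fintype.card_fin]; exact h.two_le) h2
        (isoms_le_similarityGroup f₁)
      exact .inr (.inr (.inr (.inr (.inr (.inr (.inr (.inr (.inr (.inr (.inr (.inr (.inl
        ⟨m, t, e, P, f₁, h.two_le', fun h5 => absurd h5 (not_odd_of_two_eq_zero h3),
          h.hf₁.isSymplecticForm h4, h.str hf, hI.of_exists_quad hn2 hQ hH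
            (p := fun Q' => ∀ x, Q' (vec e P (ptw x)) = 0) (h.exists_quad hf h3 hI hH' h4),
          h.le⟩))))))))))))
    · refine oCase_of_tw hQ hn hI hH h3 h ?_
      rintro rfl ⟨hF, rfl⟩
      exact h1 (h.hf₁.isSolvable_isoms_orth hF)
  · exact oCase_of_core hQ hn2 hH hP

end Cfsg.Lib.Class.Asch
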