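import Cfsg.Agent.Class.Asch.UnitSub

/-!
Lemmas for the orthogonal case of the subgroup structure theorem: rational structures of quadratic
forms, orthogonal frames, isometries in odd dimension.
-/

set_option autoImplicit false
set_option linter.unusedSectionVars false

namespace Cfsg.Lib.Class.Asch

open Matrix Cfsg.Geo
open scoped MatrixGroups commutatorElement

variable {ι : Type} [Fintype ι] [DecidableEq ι] {F : Type*} [Field F] [Fintype F]
  {H : Subgroup (GL ι F)} {σ : F ≃+* F} {ε : F} {f : (ι → F) → (ι → F) → F} {Q : (ι → F) → F}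

theorem IsSesq.isFormRationalStructure_of_gram (hf : IsSesq σ ε f) {F₀ : Subfield F} {ζ : F}
    {P : GL ι F} (h : ∀ a b, ζ * f ((P : Matrix ι ι F) *ᵥ Pi.single a 1)
      ((P : Matrix ι ι F) *ᵥ Pi.single b 1) ∈ F₀) : IsFormRationalStructure f F₀ ζ P := by
  intro u v hu hv
  rw [show f _ _ = _ from (hf.comp P).pre.eq_formOfGram u v, formOfGram, Finset.mul_sum]
  refine sum_mem fun a _ => ?_
  rw [Finset.mul_sum]
  refine sum_mem fun b _ => ?_
  convert mul_mem (mul_mem (hu a) (h a b)) (map_mem_subfield σ F₀ (hv b)) using 1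
  simp only [gramMatrix]
  ring

theorem le_subfieldSubgroup_of_ratl [Nonempty ι] {F₀ : Subfield F} {P : GL ι F}
    (h : ∀ g ∈ H, Ratl F₀ P (g : Matrix ι ι F)) : H ≤ subfieldSubgroup F₀ P := by
  refine Nrm.le_subfieldSubgroup fun g hg X hX => ?_
  obtain ⟨a, ha⟩ := ratl_iff.1 (h g hg)
  obtain ⟨b, hb⟩ := ratl_iff.1 (h _ (inv_mem hg))
  obtain ⟨Y, rfl⟩ := ratl_iff.1 hX
  exact ratl_iff.2 ⟨a * Y * b, by rw [map_mul, map_mul, map_mul, map_mul, ha, hb, ← cj_apply]⟩

theorem det_mem_subfield {F₀ : Subfield F} {X : Matrix ι ι F} (h : ∀ i j, X i j ∈ F₀) :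
    X.det ∈ F₀ := by
  obtain ⟨Y, rfl⟩ := exists_incl_iff.2 h
  exact (AlgHom.map_det (Algebra.ofId F₀ F) Y) ▸ Y.det.2

theorem PreSesq.gramMatrix_comp (hf : PreSesq (RingEquiv.refl F) f) (P : Matrix ι ι F) :
    gramMatrix (fun u v => f (P *ᵥ u) (P *ᵥ v)) = Pᵀ * gramMatrix f * P := by
  ext a b
  rw [gramMatrix, hf.eq_dot, mul_assoc, mul_apply, mulVec_single_one, mulVec_single_one]
  rfl

/-- The quadratic form is rational when its polar form is. -/
theorem isQuadFormRationalStructure_of_polar (hQ : IsNondegenerateQuadraticForm Q)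
    (hn : 2 ≤ Fintype.card ι) (hI : Irr H) (hH : H ≤ isometryGroup F Q) {F₀ : Subfield F} {ζ : F}
    {P : GL ι F} (hζ : ζ ≠ 0) (h : IsFormRationalStructure (QuadraticMap.polar Q) F₀ ζ P)
    (hH' : H ≤ subfieldSubgroup F₀ P) : IsQuadFormRationalStructure (fun v => ζ * Q v) F₀ P := by
  have : Nonempty ι := Fintype.card_pos_iff.1 (by omega)
  intro u hu
  by_cases h2 : (2 : F) = 0
  swap
  · have h1 := div_mem (h u u hu hu) (natCast_mem F₀ 2)
    rwa [polar_self_eq hQ, Nat.cast_ofNat, mul_left_comm, mul_div_cancel_left₀ _ h2] at h1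
  have hf := (isSesq_polar hQ).comp P
  refine (Subtype.range_coe (s := (F₀ : Set F))).subset
    ((IsGalois.mem_range_algebraMap_iff_fixed (F := F₀) _).2 fun τ => ?_)
  have hτ : ∀ x ∈ F₀, τ x = x := fun x hx => τ.commutes ⟨x, hx⟩
  have h1 : ∀ x y : ι → F, τ (ζ * QuadraticMap.polar Q ((P : Matrix ι ι F) *ᵥ x)
      ((P : Matrix ι ι F) *ᵥ y)) = ζ * QuadraticMap.polar Q ((P : Matrix ι ι F) *ᵥ (τ ∘ x))
      ((P : Matrix ι ι F) *ᵥ (τ ∘ y)) := fun x y => by
    rw [show QuadraticMap.polar Q _ _ = _ from hf.pre.eq_formOfGram x y,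
      show QuadraticMap.polar Q _ _ = _ from hf.pre.eq_formOfGram (τ ∘ x) (τ ∘ y)]
    simp only [formOfGram, Finset.mul_sum, map_sum, RingEquiv.refl_apply, Function.comp_apply]
    refine Finset.sum_congr rfl fun a _ => Finset.sum_congr rfl fun b _ => ?_
    rw [mul_comm (x a), mul_comm (τ (x a)), mul_assoc _ (x a), mul_assoc _ (τ (x a)), ← mul_assoc ζ,
      ← mul_assoc ζ, map_mul, map_mul τ (x a)]
    exact congrArg (· * _) (hτ _ (h _ _ (single_mem_subfield F₀ a) (single_mem_subfield F₀ b)))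
  let ψ : (ι → F) → F := fun x => τ (ζ * Q ((P : Matrix ι ι F) *ᵥ x)) -
    ζ * Q ((P : Matrix ι ι F) *ᵥ (τ ∘ x))
  have hψ : ∀ (c : F) x, ψ (c • x) = τ (c ^ 2) * ψ x := fun c x => by
    have h3 : τ ∘ (c • x) = τ c • (τ ∘ x) := funext fun i => map_mul τ _ _
    simp only [ψ, h3, mulVec_smul, hQ.smul, map_mul, map_pow]
    ring
  have h3 := hI.eq_zero_of_additive hn h2
    (fun v => τ.symm (ψ (((P⁻¹ : GL ι F) : Matrix ι ι F) *ᵥ v))) (fun v w => ?_) (fun c v => ?_)
    (fun g hg v hv => ?_) ((P : Matrix ι ι F) *ᵥ u)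
  · rw [map_eq_zero, ← coe_mul_mulVec, inv_mul_cancel, Units.val_one, one_mulVec] at h3
    have h4 : τ ∘ u = u := funext fun i => hτ _ (hu i)
    simp only [ψ, h4] at h3
    exact sub_eq_zero.1 h3
  · rw [← map_add, mulVec_add]
    congr 1
    have h3 : ∀ x y : ι → F, τ ∘ (x + y) = τ ∘ x + τ ∘ y := fun x y => funext fun i => map_add τ _ _
    simp only [ψ, h3, mulVec_add, quad_add Q, mul_add, map_add, h1]
    ring
  · rw [mulVec_smul, hψ, map_mul, AlgEquiv.symm_apply_apply]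
  · obtain ⟨a, c, ha⟩ := (mem_subfieldSubgroup_iff F₀ P g).1 (hH' hg)
    have h4 : ∀ x, (g : Matrix ι ι F) *ᵥ ((P : Matrix ι ι F) *ᵥ x) =
        (c : F) • ((P : Matrix ι ι F) *ᵥ (incl ι F₀ a *ᵥ x)) := fun x => by
      rw [ha, smul_mulVec, cj_mulVec]
    have h5 : ∀ x, Q ((P : Matrix ι ι F) *ᵥ x) =
        (c : F) ^ 2 * Q ((P : Matrix ι ι F) *ᵥ (incl ι F₀ a *ᵥ x)) := fun x => by
      rw [← hQ.smul, ← h4, (mem_isometryGroup Q g).1 (hH hg)]
    have h6 : (c : F) ^ 2 ∈ F₀ := by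
      obtain ⟨i, j, hij⟩ : ∃ i j, QuadraticMap.polar Q ((P : Matrix ι ι F) *ᵥ Pi.single i 1)
          ((P : Matrix ι ι F) *ᵥ Pi.single j 1) ≠ 0 := by
        by_contra! h0
        exact hf.isUnit_gram.ne_zero (Matrix.ext h0)
      have h6 := mem_isoms.1 (isometryGroup_le_isoms Q (hH hg))
        ((P : Matrix ι ι F) *ᵥ Pi.single i 1) ((P : Matrix ι ι F) *ᵥ Pi.single j 1)
      rw [h4, h4, (isSesq_polar hQ).smul_left, (isSesq_polar hQ).pre.smul_right,
        RingEquiv.refl_apply, ← mul_assoc, ← sq] at h6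
      have h7 : ∀ k l, (incl ι F₀ a *ᵥ Pi.single k 1) l ∈ F₀ := fun k l => by
        rw [mulVec_single_one]
        exact ((a : Matrix ι ι F₀) l k).2
      have h8 := div_mem (h _ _ (single_mem_subfield F₀ i) (single_mem_subfield F₀ j))
        (h _ _ (h7 i) (h7 j))
      rwa [← h6, mul_div_mul_left _ _ hζ, mul_div_cancel_right₀ _
        (right_ne_zero_of_mul (h6 ▸ hij))] at h8
    obtain ⟨x, rfl⟩ : ∃ x, v = (P : Matrix ι ι F) *ᵥ x :=
      ⟨_, by rw [← coe_mul_mulVec, mul_inv_cancel, Units.val_one, one_mulVec]⟩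
    have h7 : ∀ y, ((P⁻¹ : GL ι F) : Matrix ι ι F) *ᵥ ((P : Matrix ι ι F) *ᵥ y) = y := fun y => by
      rw [← coe_mul_mulVec, inv_mul_cancel, Units.val_one, one_mulVec]
    have h8 : τ ∘ (incl ι F₀ a *ᵥ x) = incl ι F₀ a *ᵥ (τ ∘ x) := by
      rw [show τ ∘ (incl ι F₀ a *ᵥ x) = _ from comp_mulVec_map τ.toRingEquiv _ x]
      exact congrArg (· *ᵥ (τ ∘ x)) (Matrix.ext fun i j => hτ _ ((a : Matrix ι ι F₀) i j).2)
    rw [map_eq_zero, h7] at hv
    rw [map_eq_zero, h4, mulVec_smul, h7, hψ, ← hv]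
    simp only [ψ, h8, h5 x, h5 (τ ∘ x), map_mul, hτ _ h6]
    ring

/-- In odd dimension the scalar of a rational structure of a form that is rational in the standard
basis can be removed. -/
theorem exists_isQuadFormRationalStructure_of_odd (hQ : IsNondegenerateQuadraticForm Q)
    (hn : Odd (Fintype.card ι)) {F₀ : Subfield F} (h1 : ∀ u : ι → F, (∀ i, u i ∈ F₀) → Q u ∈ F₀)
    {ζ : F} (hζ : ζ ≠ 0) {P : GL ι F} (h : IsQuadFormRationalStructure (fun v => ζ * Q v) F₀ P) :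
    ∃ c : Fˣ, IsQuadFormRationalStructure Q F₀ (P * scalarGL ι c) := by
  obtain ⟨m, hm⟩ := hn
  have hf := isSesq_polar hQ
  have h2 : ∀ a b, ∀ i, (Pi.single a (1 : F) + Pi.single b 1 : ι → F) i ∈ F₀ := fun a b i =>
    add_mem (single_mem_subfield F₀ a i) (single_mem_subfield F₀ b i)
  have h3 : (gramMatrix (QuadraticMap.polar Q)).det ∈ F₀ := det_mem_subfield fun a b =>
    sub_mem (sub_mem (h1 _ (h2 a b)) (h1 _ (single_mem_subfield F₀ a)))
      (h1 _ (single_mem_subfield F₀ b))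
  have h4 : (ζ • gramMatrix fun u v => QuadraticMap.polar Q ((P : Matrix ι ι F) *ᵥ u)
      ((P : Matrix ι ι F) *ᵥ v)).det ∈ F₀ := det_mem_subfield fun a b => by
    convert sub_mem (sub_mem (h _ (h2 a b)) (h _ (single_mem_subfield F₀ a)))
      (h _ (single_mem_subfield F₀ b)) using 1
    simp only [Matrix.smul_apply, gramMatrix, QuadraticMap.polar, mulVec_add, smul_eq_mul]
    ring
  have h5 := div_mem h4 h3
  rw [hf.pre.gramMatrix_comp, det_smul, det_mul, det_mul, det_transpose, hm] at h5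
  have h6 := hf.isUnit_det_gram.ne_zero
  refine ⟨Units.mk0 (ζ ^ (m + 1) * (P : Matrix ι ι F).det)
    (mul_ne_zero (pow_ne_zero _ hζ) (GeneralLinearGroup.det_ne_zero P)), fun u hu => ?_⟩
  rw [coe_mul_scalarGL_mulVec, hQ.smul, Units.val_mk0]
  convert mul_mem h5 (h u hu) using 1
  field_simp
  ring

/-- A group permuting an orthogonal frame of a symmetric form is realised by signed permutation
matrices. -/
theorem IdemSys.exists_subfield_of_rank_one [Nonempty ι] {t : ℕ} {E : Fin t → Matrix ι ι F}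
    (hE : IdemSys H E) (hf : IsSesq (RingEquiv.refl F) ε f)
    (h1 : ∀ i, adj (RingEquiv.refl F) f (E i) = E i) (hH : H ≤ isoms f) {i₀ : Fin t}
    (hr : (E i₀).rank = 1) (F₀ : Subfield F) :
    ∃ (P : GL ι F) (ζ : F), ζ ≠ 0 ∧ IsFormRationalStructure f F₀ ζ P ∧
      H ≤ subfieldSubgroup F₀ P := by
  have hD := hE.isNondegenerateMDecomposition hf h1 i₀
  obtain ⟨u, hu⟩ := exists_mulVec_ne_zero (hE.ne_zero i₀)
  choose g hg hg' using hE.trans i₀
  let v : Fin t → ι → F := fun i => (g i : Matrix ι ι F) *ᵥ (E i₀ *ᵥ u)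
  have hv0 : ∀ i, v i ≠ 0 := fun i h => hu (coe_mulVec_eq_zero _ h)
  have hmem : ∀ (x : GL ι F) i j w, cj x (E i) = E j → w ∈ rng (E i) →
      (x : Matrix ι ι F) *ᵥ w ∈ rng (E j) := fun x i j w hx hw => by
    rw [← hx, ← map_rng]
    exact ⟨w, hw, rfl⟩
  have hv : ∀ i, v i ∈ rng (E i) := fun i => hmem _ _ _ _ (hg' i) (mulVec_mem_rng _ _)
  have hm : ∀ i, ∀ w ∈ rng (E i), ∃ c : F, c • v i = w := fun i w hw =>
    ((finrank_eq_one_iff_of_nonzero' (⟨v i, hv i⟩ : rng (E i))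
      (fun h => hv0 i (congrArg Subtype.val h))).1 ((hD.decomp.finrank_eq i).trans hr)
      ⟨w, hw⟩).imp fun c hc => congrArg Subtype.val hc
  have ha : ∀ i, f (v i) (v i) = f (E i₀ *ᵥ u) (E i₀ *ᵥ u) := fun i => mem_isoms.1 (hH (hg i)) _ _
  have ha0 : f (E i₀ *ᵥ u) (E i₀ *ᵥ u) ≠ 0 := by
    obtain ⟨x, hx, h2⟩ := (hD.nondegenerate i₀ _ (hv i₀) (hv0 i₀)).1
    obtain ⟨c, rfl⟩ := hm i₀ x hx
    rw [hf.smul_left, ha] at h2
    exact right_ne_zero_of_mul h2
  let e : ι ≃ Fin t := Fintype.equivFinOfCardEq (by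
    rw [card_eq_of_isMDecomposition hD.decomp, hr, mul_one])
  let M : Matrix ι ι F := Matrix.of fun i j => v (e j) i
  have hM : ∀ j, M *ᵥ Pi.single j 1 = v (e j) := fun j => by
    rw [mulVec_single_one]
    rfl
  have hMu : IsUnit M := by
    refine mulVec_injective_iff_isUnit.1 ((injective_iff_map_eq_zero (Matrix.mulVecLin M)).2
      fun x hx => funext fun j => ?_)
    have h2 := (hf.pre.comp_mulVec M M).eq_formOfGram x (Pi.single j 1)
    rw [show M *ᵥ x = 0 from hx, hf.pre.zero_left, formOfGram, Finset.sum_eq_single j,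
      Finset.sum_eq_single j] at h2
    · simp only [gramMatrix, hM, ha, Pi.single_eq_same, RingEquiv.refl_apply, mul_one] at h2
      exact (mul_eq_zero.1 h2.symm).resolve_right ha0
    · intro b _ hb
      rw [Pi.single_eq_of_ne hb, map_zero, mul_zero]
    · simp
    · intro a _ ha
      rw [Finset.sum_eq_single j]
      · simp only [gramMatrix, hM]
        rw [hD.orthogonal _ _ (e.injective.ne ha) _ (hv _) _ (hv _), mul_zero, zero_mul]
      · intro b _ hb
        rw [Pi.single_eq_of_ne hb, map_zero, mul_zero]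
      · simp
    · simp
  obtain ⟨P, hP⟩ := hMu
  refine ⟨P, _, inv_ne_zero ha0, hf.isFormRationalStructure_of_gram fun a b => ?_,
    le_subfieldSubgroup_of_ratl fun x hx i j => ?_⟩
  · rw [hP, hM, hM]
    by_cases hab : a = b
    · rw [hab, ha, inv_mul_cancel₀ ha0]
      exact one_mem _
    · rw [hD.orthogonal _ _ (e.injective.ne hab) _ (hv _) _ (hv _), mul_zero]
      exact zero_mem _
  · obtain ⟨k, hk⟩ := hE.perm x hx (e j)
    obtain ⟨c, hc⟩ := hm k _ (hmem x _ _ _ hk (hv (e j)))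
    have h2 : c * c = 1 := by
      have h2 := mem_isoms.1 (hH hx) (v (e j)) (v (e j))
      rw [← hc, hf.smul_left, hf.pre.smul_right, ha, ha, RingEquiv.refl_apply, ← mul_assoc] at h2
      exact mul_right_cancel₀ ha0 (h2.trans (one_mul _).symm)
    have h3 : cj P⁻¹ (x : Matrix ι ι F) *ᵥ Pi.single j 1 = c • Pi.single (e.symm k) 1 := by
      rw [cj_apply, inv_inv, ← mulVec_mulVec, ← mulVec_mulVec, hP, hM, ← hc,
        ← e.apply_symm_apply k, ← hM, mulVec_smul, ← hP, ← coe_mul_mulVec, inv_mul_cancel,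
        Units.val_one, one_mulVec, e.symm_apply_apply]
    rw [mulVec_single_one] at h3
    rw [show cj P⁻¹ (x : Matrix ι ι F) i j = _ from congrFun h3 i]
    refine mul_mem ?_ (single_mem_subfield F₀ _ i)
    rcases mul_self_eq_one_iff.1 h2 with rfl | rfl
    exacts [one_mem _, neg_mem (one_mem _)]

theorem eq_one_of_odd (hn : Odd (Fintype.card ι)) {c : F} (hc : c * c = 1)
    (h : (c • (1 : Matrix ι ι F)).det = 1) : c = 1 := by
  obtain ⟨m, hm⟩ := hn
  rwa [det_smul, det_one, mul_one, hm, pow_succ, pow_mul, sq, hc, one_pow, one_mul] at h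

/-- In odd dimension isometries of a bilinear form that commute up to scalars commute. -/
theorem IsSesq.comm_of_odd (hf : IsSesq (RingEquiv.refl F) ε f) (hn : Odd (Fintype.card ι))
    {x y : GL ι F} (hx : x ∈ isoms f) (hy : y ∈ isoms f) (h : ⁅x, y⁆ ∈ scalars ι F) :
    x * y = y * x := by
  have : Nonempty ι := Fintype.card_pos_iff.1 hn.pos
  obtain ⟨c, hc⟩ := (mem_scalars_iff' _).1 h
  have h1 := eq_one_of_odd hn (c := c) (hf.mul_map_eq_one_of_scalar
    (mul_mem (mul_mem (mul_mem hx hy) (inv_mem hx)) (inv_mem hy)) hc) (by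
      rw [← hc, ← GeneralLinearGroup.val_det_apply, map_commutatorElement,
        commutatorElement_eq_one_iff_mul_comm.2 (mul_comm _ _), Units.val_one])
  rw [h1, one_smul] at hc
  exact commutatorElement_eq_one_iff_mul_comm.1 (Units.ext hc)

/-- An abelian group of isometries of a bilinear form in odd dimension is reducible. -/
theorem IsSesq.not_irr_of_comm (hf : IsSesq (RingEquiv.refl F) ε f) (h2 : (2 : F) ≠ 0)
    (hn : Odd (Fintype.card ι)) (hn2 : 2 ≤ Fintype.card ι) (hH : H ≤ isoms f)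
    (hc : ∀ x ∈ H, ∀ y ∈ H, x * y = y * x) : ¬ Irr H := by
  have : Nonempty ι := Fintype.card_pos_iff.1 hn.pos
  intro hI
  refine not_irr_of_le_scalars hn2 (fun g hg => ?_) hI
  have h1 := (hf.mem_isoms_iff g).1 (hH hg)
  have h3 : (g : Matrix ι ι F).det * (g : Matrix ι ι F).det = 1 := by
    have := congrArg det h1
    rwa [det_mul, hf.det_adj, det_one] at this
  have h4 : ((g : Matrix ι ι F) - (g : Matrix ι ι F).det • 1).det = 0 := by
    have h4 : adj (RingEquiv.refl F) f ((g : Matrix ι ι F) - (g : Matrix ι ι F).det • 1) * g =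
        (-(g : Matrix ι ι F).det) • ((g : Matrix ι ι F) - (g : Matrix ι ι F).det • 1) := by
      rw [hf.adj_sub, hf.adj_smul_one, sub_mul, h1, smul_sub, smul_smul, neg_mul, h3,
        RingEquiv.refl_apply, smul_mul_assoc, one_mul, neg_smul, neg_smul, one_smul]
      abel
    have h5 := congrArg det h4
    obtain ⟨m, hm⟩ := hn
    rw [det_mul, hf.det_adj, det_smul, RingEquiv.refl_apply, hm, pow_succ, pow_mul, neg_sq, sq, h3,
      one_pow, one_mul] at h5
    refine mul_left_cancel₀ (mul_ne_zero h2 (GeneralLinearGroup.det_ne_zero g)) ?_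
    linear_combination h5
  by_contra h5
  refine (((isUnit_iff_isUnit_det _).1 (hI.isUnit_of_comm (fun h => h5 (mem_scalars_of_eq
    (sub_eq_zero.1 h))) fun x hx => ?_)).ne_zero) h4
  rw [map_sub, map_smul, map_one, cj_coe, hc x hx g hg, mul_inv_cancel_right]

/-- A group of isometries normalising a self-adjoint maximal subfield in odd dimension is
abelian. -/
theorem IsFieldSubalgebra.comm_of_selfAdjoint {K : Subalgebra F (Matrix ι ι F)}
    (hK : IsFieldSubalgebra (Fintype.card ι) K) (hf : IsSesq (RingEquiv.refl F) ε f)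
    (hS : ∀ x ∈ K, adj (RingEquiv.refl F) f x = x) (hn : Odd (Fintype.card ι)) (hH : H ≤ isoms f)
    (hN : Nrm H (K : Set (Matrix ι ι F))) : ∀ x ∈ H, ∀ y ∈ H, x * y = y * x := by
  have : Nonempty ι := Fintype.card_pos_iff.1 hn.pos
  intro x hx y hy
  have h1 : ∀ g ∈ H, ∃ a, ∀ k ∈ K, cj g k = k ^ a := fun g hg =>
    IsFieldSubalgebra.exists_eq_pow hK _ (hN g hg) (map_one _) (fun _ _ _ _ => map_add _ _ _)
      fun _ _ _ _ => map_mul _ _ _
  obtain ⟨a, ha⟩ := h1 x hx
  obtain ⟨b, hb⟩ := h1 y hy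
  have h2 : ⁅x, y⁆ ∈ H := mul_mem (mul_mem (mul_mem hx hy) (inv_mem hx)) (inv_mem hy)
  have h3 : ((⁅x, y⁆ : GL ι F) : Matrix ι ι F) ∈ K := by
    refine IsFieldSubalgebra.mem_of_comm hK fun k hk => (cj_eq_self_iff _ _).1 ?_
    obtain ⟨k', hk', rfl⟩ : ∃ k' ∈ K, k = cj (y * x) k' :=
      ⟨_, hN _ (inv_mem (mul_mem hy hx)) k hk, (cj_cj_inv _ _).symm⟩
    rw [← cj_mul, commutatorElement_def, mul_assoc _ y⁻¹, inv_mul_cancel_left, inv_mul_cancel_right,
      cj_mul, cj_mul, ha k' hk', hb k' hk', map_pow, map_pow, ha k' hk', hb k' hk', ← pow_mul,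
      ← pow_mul, mul_comm]
  refine hf.comm_of_odd hn (hH hx) (hH hy) ?_
  have h4 := (hf.mem_isoms_iff _).1 (hH h2)
  rw [hS _ h3] at h4
  by_cases h5 : ((⁅x, y⁆ : GL ι F) : Matrix ι ι F) - 1 = 0
  · exact mem_scalars_of_eq (c := 1) (by rw [one_smul, sub_eq_zero.1 h5])
  obtain ⟨z, hz, h6⟩ := hK.inv _ (sub_mem h3 (one_mem K)) h5
  refine mem_scalars_of_eq (c := -1) ?_
  have h7 : (((⁅x, y⁆ : GL ι F) : Matrix ι ι F) + 1) * ((⁅x, y⁆ : GL ι F) - 1) = 0 := by
    rw [add_mul, mul_sub, h4, mul_one, one_mul, sub_add_sub_cancel', sub_self]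
  have h8 := congrArg (· * z) h7
  simp only [mul_assoc, h6, mul_one, zero_mul] at h8
  rw [neg_smul, one_smul, ← add_eq_zero_iff_eq_neg, h8]

theorem IsSesq.not_le_scalars_orth (hF : Fintype.card F = 3)
    {f : (Fin 3 → F) → (Fin 3 → F) → F} (hf : IsSesq (RingEquiv.refl F) 1 f) :
    ¬ isoms f ≤ scalars (Fin 3) F := by
  intro h
  have h2 : (2 : F) ≠ 0 := two_ne_zero_of_odd_card (by rw [hF]; decide)
  have hQ := hf.isNondegenerateQuadraticForm_self h2
  have h1 := Orth.card_O_odd (geoQuad_nondegenerate hQ) (m := 1) (by simp)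
  rw [Nat.card_eq_fintype_card (α := F), hF] at h1
  have h3 : Nat.card (isometryGroup F fun x => f x x) = 48 :=
    (Nat.card_congr (oEquivIsom fun x => f x x).toEquiv).trans h1
  have h5 : (isometryGroup F fun x => f x x) ≤ isoms f := fun g hg => mem_isoms.2 fun u v =>
    (hf.eq_mul_of_diag (hf.comp g) h2 (c := 1)
      (fun w => ((mem_isometryGroup _ g).1 hg w).trans (one_mul _).symm) u v).trans (one_mul _)
  have h4 := (Subgroup.card_dvd_of_le (h5.trans h)).trans
    (scalars_eq_range (ι := Fin 3) (F := F) ▸ Subgroup.card_range_dvd (scalarGL (Fin 3)))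
  rw [h3, Nat.card_units, Nat.card_eq_fintype_card, hF] at h4
  exact absurd h4 (by decide)

end Cfsg.Lib.Class.Asch
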